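import Cfsg.Agent.H332.TC.D42
import Cfsg.Agent.H588.TW.Defs

/-!
# S2452, row `³D₄(2)` (helper675): one class of elements of order 7
-/

set_option autoImplicit false

namespace Cfsg.Agent.H675.TW

open Cfsg Cfsg.Agent.H588.TW

/-- S2452 / S2464 / S4173, row `³D₄(2)`: one class of order 7 -/
theorem pp_td4_two {F : Type*} [Field F] [Fintype F] (hF : Fintype.card F = 2 ^ 3) :
    Cfsg.Agent.H494.TC.PP ↥(Lie.twistedD4 F 2) := by
  obtain ⟨φ⟩ := Cfsg.Agent.H347.HX.D42.iso F hF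
  obtain ⟨x, hx, h⟩ := Cfsg.Agent.H332.TC.D42.all_K
  refine ⟨φ x, ?_, ?_, fun g hg => ?_⟩
  · rw [MulEquiv.orderOf_eq, hx]
    norm_num
  · rw [MulEquiv.orderOf_eq, hx]
    norm_num
  obtain ⟨u, v, h1⟩ := h (φ.symm g) fun h2 => hg (by rw [← φ.apply_symm_apply g, h2, map_one])
  refine ⟨φ u, φ v, ?_⟩
  rw [← φ.apply_symm_apply g, h1]
  simp only [map_mul, map_inv]

/-- S2452, row `³D₄(2)` -/
theorem t52_td4_two {F : Type*} [Field F] [Fintype F] (hF : Fintype.card F = 2 ^ 3) :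
    T52 ↥(Lie.twistedD4 F 2) := by
  obtain ⟨x, hp, hc, h⟩ := pp_td4_two hF
  refine T52.of_sq hp ?_ h
  by_contra hn
  push Not at hn
  have h2 : ∀ g : ↥(Lie.twistedD4 F 2), g ≠ 1 → g = x * x := fun g hg => by
    obtain ⟨u, v, e⟩ := h g hg
    rw [hn u, hn v] at e
    exact e
  have hx1 : x ≠ 1 := by
    rintro rfl
    rw [orderOf_one] at hp
    exact Nat.not_prime_one hp
  have h3 := h2 x hx1
  exact hx1 (by
    have h4 : x * 1 = x * x := by rwa [mul_one]
    exact (mul_left_cancel h4).symm)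

end Cfsg.Agent.H675.TW
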